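import Mathlib
import Cfsg.Prelude.Def_GeometricClasses
import Cfsg.Prelude.Def_LieClassical

/-!
# Project U64 (statement S6001): interface

`PSU_4(p)`, `p ≡ 3 (mod 4)`, `R = 4 ∘ 2^{1+4}` absolutely irreducible in `GU_4(p)`, `H = N(R) ∩ SU_4(p)`.
Every package is a `def PkgX : Prop`, universe polymorphic (`PkgX.{u}`).
-/

set_option autoImplicit false

namespace Cfsg.Agent.Lib.Helper60.U64

open Matrix

universe u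

/-- 4 x 4 matrices. -/
abbrev M4 (F : Type u) [Field F] := Matrix (Fin 4) (Fin 4) F

section mats

variable (F : Type u) [Field F]

/-- `Z ⊗ 1`. -/
def mA1 : M4 F := !![1, 0, 0, 0; 0, 1, 0, 0; 0, 0, -1, 0; 0, 0, 0, -1]
/-- `1 ⊗ Z`. -/
def mA2 : M4 F := !![1, 0, 0, 0; 0, -1, 0, 0; 0, 0, 1, 0; 0, 0, 0, -1]
/-- `X ⊗ 1`. -/
def mB1 : M4 F := !![0, 0, 1, 0; 0, 0, 0, 1; 1, 0, 0, 0; 0, 1, 0, 0]
/-- `1 ⊗ X`. -/
def mB2 : M4 F := !![0, 1, 0, 0; 1, 0, 0, 0; 0, 0, 0, 1; 0, 0, 1, 0]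
/-- The controlled-Z gate `diag(1,1,1,-1)`. -/
def mD : M4 F := !![1, 0, 0, 0; 0, 1, 0, 0; 0, 0, 1, 0; 0, 0, 0, -1]

end mats

variable {F : Type u} [Field F]

/-- `1 ⊗ u`, `u = (1/2) [[-1-i, -1-i], [1-i, -1+i]]` of order 3 (type `(ω, ω, ω², ω²)`). -/
def mU0 (i : F) : M4 F :=
  (2 : F)⁻¹ • !![-1 - i, -1 - i, 0, 0; 1 - i, -1 + i, 0, 0; 0, 0, -1 - i, -1 - i; 0, 0, 1 - i, -1 + i]
/-- `u ⊗ u`, of order 3 (type `(1, 1, ω, ω²)`). -/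
def mU2 (i : F) : M4 F :=
  (2 : F)⁻¹ • !![i, i, i, i; -1, 1, -1, 1; -1, -1, 1, 1; -i, i, i, -i]
/-- An element of order 5 of the normalizer of the Pauli group. -/
def mY5 (i : F) : M4 F :=
  (2 : F)⁻¹ • !![-1 + i, 0, -1 + i, 0; 0, -1 - i, 0, -1 - i; 0, 1 - i, 0, -1 + i; -1 - i, 0, 1 + i, 0]

/-- The standard Pauli group `⟨i, Z⊗1, 1⊗Z, X⊗1, 1⊗X⟩` (order 64 when `i * i = -1`, `2 ≠ 0`). -/
def R0 (i : F) : Subgroup (GL (Fin 4) F) :=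
  Subgroup.closure {x : GL (Fin 4) F | (x : M4 F) = i • (1 : M4 F) ∨ (x : M4 F) = mA1 F ∨
    (x : M4 F) = mA2 F ∨ (x : M4 F) = mB1 F ∨ (x : M4 F) = mB2 F}

/-- Commute or anticommute; squares are `± 1`. -/
def IsPM (R : Subgroup (GL (Fin 4) F)) : Prop :=
  (∀ x ∈ R, ∀ y ∈ R, (x : M4 F) * (y : M4 F) = (y : M4 F) * (x : M4 F) ∨
      (x : M4 F) * (y : M4 F) = -((y : M4 F) * (x : M4 F))) ∧
  (∀ x ∈ R, (x : M4 F) * (x : M4 F) = 1 ∨ (x : M4 F) * (x : M4 F) = -1)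

/-- Only the scalar matrices commute with all elements of `R`. -/
def ScalComm (R : Subgroup (GL (Fin 4) F)) : Prop :=
  ∀ M : M4 F, (∀ s ∈ R, M * (s : M4 F) = (s : M4 F) * M) → ∃ c : F, M = c • (1 : M4 F)

/-- A Pauli frame: four involutions with the commutation relations of `Z⊗1, X⊗1, 1⊗Z, 1⊗X`. -/
def IsPauli (a1 b1 a2 b2 : GL (Fin 4) F) : Prop :=
  a1 * a1 = 1 ∧ b1 * b1 = 1 ∧ a2 * a2 = 1 ∧ b2 * b2 = 1 ∧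
  (a1 : M4 F) * (b1 : M4 F) = -((b1 : M4 F) * (a1 : M4 F)) ∧
  (a2 : M4 F) * (b2 : M4 F) = -((b2 : M4 F) * (a2 : M4 F)) ∧
  a1 * a2 = a2 * a1 ∧ a1 * b2 = b2 * a1 ∧ b1 * a2 = a2 * b1 ∧ b1 * b2 = b2 * b1

/-- `x` is conjugate in `GL_4` to an element `y₀` of `GU_4 ∩ N(R0)` whose unitary centralizer has all
determinants of norm one. -/
def Good (p : ℕ) (i : F) (x : GL (Fin 4) F) : Prop :=
  ∃ y₀ : GL (Fin 4) F, y₀ ∈ Cfsg.GU 4 F p ∧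
    y₀ ∈ Subgroup.normalizer ((R0 i : Subgroup (GL (Fin 4) F)) : Set (GL (Fin 4) F)) ∧
    (∃ k : GL (Fin 4) F, x * k = k * y₀) ∧
    ∀ δ : F, δ ^ (p + 1) = 1 → ∃ M : GL (Fin 4) F, M ∈ Cfsg.GU 4 F p ∧ M * y₀ = y₀ * M ∧
      (M : M4 F).det = δ

/-! ## Structure packages -/

/-- [PM] -/
def PkgPM : Prop :=
  ∀ (F : Type u) [Field F] (R : Subgroup (GL (Fin 4) F)),
    Cfsg.Geo.IsSymplecticTypeGroup 2 R → ScalComm R → Nat.card R = 64 →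
    Nat.card (Subgroup.center R) = 4 → (2 : F) ≠ 0 → IsPM R

/-- [FRA] -/
def PkgFrA : Prop :=
  ∀ (F : Type u) [Field F] (R : Subgroup (GL (Fin 4) F)),
    IsPM R → ScalComm R → Nat.card R = 64 → Nat.card (Subgroup.center R) = 4 → (2 : F) ≠ 0 →
    ∃ (i : F) (a1 b1 a2 b2 : GL (Fin 4) F), i * i = -1 ∧ a1 ∈ R ∧ b1 ∈ R ∧ a2 ∈ R ∧ b2 ∈ R ∧
      IsPauli a1 b1 a2 b2 ∧ (∃ z ∈ R, (z : M4 F) = i • (1 : M4 F)) ∧
      ∀ x ∈ R, ∃ k e1 f1 e2 f2 : ℕ, (x : M4 F) =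
        i ^ k • ((a1 : M4 F) ^ e1 * (b1 : M4 F) ^ f1 * (a2 : M4 F) ^ e2 * (b2 : M4 F) ^ f2)

/-- [FRB] -/
def PkgFrB : Prop :=
  ∀ (F : Type u) [Field F] [Fintype F] (p : ℕ), Fintype.card F = p ^ 2 → p.Prime → p ≠ 2 →
    ∀ a1 b1 a2 b2 : GL (Fin 4) F, a1 ∈ Cfsg.GU 4 F p → b1 ∈ Cfsg.GU 4 F p → a2 ∈ Cfsg.GU 4 F p →
      b2 ∈ Cfsg.GU 4 F p → IsPauli a1 b1 a2 b2 →
      ∃ g : GL (Fin 4) F, g ∈ Cfsg.GU 4 F p ∧ (a1 : M4 F) * (g : M4 F) = (g : M4 F) * mA1 F ∧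
        (a2 : M4 F) * (g : M4 F) = (g : M4 F) * mA2 F ∧
        (b1 : M4 F) * (g : M4 F) = (g : M4 F) * mB1 F ∧
        (b2 : M4 F) * (g : M4 F) = (g : M4 F) * mB2 F

/-- [FRC] -/
def PkgFrC : Prop :=
  ∀ (F : Type u) [Field F] (R : Subgroup (GL (Fin 4) F)) (i : F) (a1 b1 a2 b2 g : GL (Fin 4) F),
    i * i = -1 → (2 : F) ≠ 0 → a1 ∈ R → b1 ∈ R → a2 ∈ R → b2 ∈ R →
    (∃ z ∈ R, (z : M4 F) = i • (1 : M4 F)) →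
    (∀ x ∈ R, ∃ k e1 f1 e2 f2 : ℕ, (x : M4 F) =
        i ^ k • ((a1 : M4 F) ^ e1 * (b1 : M4 F) ^ f1 * (a2 : M4 F) ^ e2 * (b2 : M4 F) ^ f2)) →
    (a1 : M4 F) * (g : M4 F) = (g : M4 F) * mA1 F → (a2 : M4 F) * (g : M4 F) = (g : M4 F) * mA2 F →
    (b1 : M4 F) * (g : M4 F) = (g : M4 F) * mB1 F → (b2 : M4 F) * (g : M4 F) = (g : M4 F) * mB2 F →
    R = (R0 i).map (MulAut.conj g).toMonoidHom

/-! ## Elements of the normalizer of `R0` -/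

/-- [NCRIT] -/
def PkgNCrit : Prop :=
  ∀ (F : Type u) [Field F] [Finite F] (i : F) (y : GL (Fin 4) F),
    (∀ s : GL (Fin 4) F, ((s : M4 F) = i • (1 : M4 F) ∨ (s : M4 F) = mA1 F ∨ (s : M4 F) = mA2 F ∨
        (s : M4 F) = mB1 F ∨ (s : M4 F) = mB2 F) → y * s * y⁻¹ ∈ R0 i) →
    y ∈ Subgroup.normalizer ((R0 i : Subgroup (GL (Fin 4) F)) : Set (GL (Fin 4) F))

/-- [ND] -/
def PkgND : Prop :=
  ∀ (F : Type u) [Field F] [Finite F] (i : F), i * i = -1 → (2 : F) ≠ 0 →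
    ∀ y : GL (Fin 4) F, (y : M4 F) = mD F →
      y ∈ Subgroup.normalizer ((R0 i : Subgroup (GL (Fin 4) F)) : Set (GL (Fin 4) F))

/-- [NU0] -/
def PkgNU0 : Prop :=
  ∀ (F : Type u) [Field F] [Finite F] (i : F), i * i = -1 → (2 : F) ≠ 0 →
    ∀ y : GL (Fin 4) F, (y : M4 F) = mU0 i →
      y ∈ Subgroup.normalizer ((R0 i : Subgroup (GL (Fin 4) F)) : Set (GL (Fin 4) F))

/-- [NU2] -/
def PkgNU2 : Prop :=
  ∀ (F : Type u) [Field F] [Finite F] (i : F), i * i = -1 → (2 : F) ≠ 0 →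
    ∀ y : GL (Fin 4) F, (y : M4 F) = mU2 i →
      y ∈ Subgroup.normalizer ((R0 i : Subgroup (GL (Fin 4) F)) : Set (GL (Fin 4) F))

/-- [NY5] -/
def PkgNY5 : Prop :=
  ∀ (F : Type u) [Field F] [Finite F] (i : F), i * i = -1 → (2 : F) ≠ 0 →
    ∀ y : GL (Fin 4) F, (y : M4 F) = mY5 i →
      y ∈ Subgroup.normalizer ((R0 i : Subgroup (GL (Fin 4) F)) : Set (GL (Fin 4) F))

/-- [EXPL] powers, determinants of the explicit matrices. -/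
def PkgExpl : Prop :=
  ∀ (F : Type u) [Field F] (i : F), i * i = -1 → (2 : F) ≠ 0 →
    mU0 i ^ 3 = 1 ∧ mU2 i ^ 3 = 1 ∧ mY5 i ^ 5 = 1 ∧ (mY5 i).det = 1 ∧ mY5 i ≠ 1 ∧
    mU0 i ≠ 1 ∧ mU2 i ≠ 1

/-- [GUM] the explicit matrices are unitary. -/
def PkgGUM : Prop :=
  ∀ (F : Type u) [Field F] [Fintype F] (p : ℕ) (i : F), Fintype.card F = p ^ 2 → p.Prime →
    p % 4 = 3 → i * i = -1 → i ^ p = -i →
    ∀ y : GL (Fin 4) F, ((y : M4 F) = mD F ∨ (y : M4 F) = mU0 i ∨ (y : M4 F) = mU2 i ∨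
      (y : M4 F) = mY5 i ∨ (y : M4 F) = mA1 F ∨ (y : M4 F) = mA2 F ∨ (y : M4 F) = mB1 F ∨
      (y : M4 F) = mB2 F) → y ∈ Cfsg.GU 4 F p

/-- [DGU] diagonal matrices with entries of norm one are unitary. -/
def PkgDGU : Prop :=
  ∀ (F : Type u) [Field F] [Fintype F] (p : ℕ), Fintype.card F = p ^ 2 → p.Prime →
    ∀ (d : Fin 4 → F), (∀ j, d j ^ (p + 1) = 1) →
    ∀ y : GL (Fin 4) F, (y : M4 F) = Matrix.diagonal d → y ∈ Cfsg.GU 4 F p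

/-! ## Positive cases -/

/-- [P2] -/
def PkgP2 : Prop :=
  ∀ (F : Type u) [Field F] [Fintype F] (p : ℕ) (i : F), Fintype.card F = p ^ 2 → p.Prime →
    p % 4 = 3 → i * i = -1 →
    ∀ x : GL (Fin 4) F, x ∈ Cfsg.GU 4 F p → (x : M4 F).det = 1 →
      (∃ z : F, (x : M4 F) * (x : M4 F) = z • (1 : M4 F)) →
      (∀ z : F, (x : M4 F) ≠ z • (1 : M4 F)) → Good p i x

/-- [P3] -/
def PkgP3 : Prop :=
  ∀ (F : Type u) [Field F] [Fintype F] (p : ℕ) (i : F), Fintype.card F = p ^ 2 → p.Prime →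
    p % 4 = 3 → p % 3 = 1 → i * i = -1 →
    ∀ x : GL (Fin 4) F, x ∈ Cfsg.GU 4 F p → (x : M4 F).det = 1 →
      (∃ z : F, (x : M4 F) ^ 3 = z • (1 : M4 F)) →
      (∀ z : F, (x : M4 F) ≠ z • (1 : M4 F)) → Good p i x

/-- [P5] -/
def PkgP5 : Prop :=
  ∀ (F : Type u) [Field F] [Fintype F] (p : ℕ), Fintype.card F = p ^ 2 → p.Prime →
    p % 4 = 3 → orderOf (p : ZMod 5) = 4 →
    ∀ (N : Subgroup (GL (Fin 4) F)) (Y : GL (Fin 4) F),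
      (∀ c : F, ∀ s : GL (Fin 4) F, (s : M4 F) = c • (1 : M4 F) → s ∈ N) →
      Y ∈ Cfsg.GU 4 F p ⊓ Cfsg.Geo.specialLinear (Fin 4) F → Y ∈ N → Y ^ 5 = 1 → Y ≠ 1 →
      ∀ x : GL (Fin 4) F, x ∈ Cfsg.GU 4 F p ⊓ Cfsg.Geo.specialLinear (Fin 4) F →
        (∃ z : F, ((x ^ 5 : GL (Fin 4) F) : M4 F) = z • (1 : M4 F)) →
        (∀ z : F, (x : M4 F) ≠ z • (1 : M4 F)) →
        ∃ h ∈ Cfsg.GU 4 F p ⊓ Cfsg.Geo.specialLinear (Fin 4) F, h⁻¹ * x * h ∈ N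

/-! ## Derangements -/

/-- [TR] -/
def PkgTR : Prop :=
  ∀ (F : Type u) [Field F] (R : Subgroup (GL (Fin 4) F)),
    IsPM R → ScalComm R → Nat.card R = 64 → Nat.card (Subgroup.center R) = 4 → (2 : F) ≠ 0 →
    ∀ (y : GL (Fin 4) F) (r : ℕ), y ∈ Subgroup.normalizer ((R : Subgroup (GL (Fin 4) F)) : Set (GL (Fin 4) F)) →
      r.Prime → r ≠ 2 → (∃ z : F, ((y ^ r : GL (Fin 4) F) : M4 F) = z • (1 : M4 F)) →
      ∃ n : ℕ, n ∣ 64 ∧ 4 ∣ n ∧ r ∣ 64 - n ∧ (n = 64 → ∃ c : F, (y : M4 F) = c • (1 : M4 F)) ∧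
        (4 : F) * (y : M4 F).trace * ((y⁻¹ : GL (Fin 4) F) : M4 F).trace = (n : F)

/-- [FIX7] -/
def PkgFix7 : Prop :=
  ∀ (F : Type u) [Field F] (R : Subgroup (GL (Fin 4) F)),
    IsPM R → ScalComm R → Nat.card R = 64 → Nat.card (Subgroup.center R) = 4 → (2 : F) ≠ 0 →
    ∀ y : GL (Fin 4) F, y ∈ Subgroup.normalizer ((R : Subgroup (GL (Fin 4) F)) : Set (GL (Fin 4) F)) →
      (∃ z : F, ((y ^ 7 : GL (Fin 4) F) : M4 F) = z • (1 : M4 F)) →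
      ∃ c : F, (y : M4 F) = c • (1 : M4 F)

/-- [DTV] -/
def PkgDTV : Prop :=
  ∀ (F : Type u) [Field F] (R : Subgroup (GL (Fin 4) F)),
    IsPM R → ScalComm R → Nat.card R = 64 → Nat.card (Subgroup.center R) = 4 → (2 : F) ≠ 0 →
    ∀ (y : GL (Fin 4) F) (q : ℕ), y ∈ Subgroup.normalizer ((R : Subgroup (GL (Fin 4) F)) : Set (GL (Fin 4) F)) →
      Odd q → y ^ q = 1 → ((y : M4 F) - 1).rank = 1 → False

/-- [UTV] -/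
def PkgUTV : Prop :=
  ∀ (F : Type u) [Field F] [Fintype F] (p : ℕ), Fintype.card F = p ^ 2 → p.Prime → p ≠ 2 →
    ∃ x : GL (Fin 4) F, x ∈ Cfsg.GU 4 F p ⊓ Cfsg.Geo.specialLinear (Fin 4) F ∧ x ^ p = 1 ∧
      ((x : M4 F) - 1).rank = 1

/-- [W3] -/
def PkgW3 : Prop :=
  ∀ (F : Type u) [Field F] [Fintype F] (p : ℕ), Fintype.card F = p ^ 2 → p.Prime → p % 3 = 2 →
    ∃ ω : F, ω * ω + ω + 1 = 0 ∧ ω ^ (p + 1) = 1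

/-- [QR5] -/
def PkgQR5 : Prop :=
  ∀ (F : Type u) [Field F] [Fintype F] (p : ℕ), Fintype.card F = p ^ 2 → p.Prime → p % 4 = 3 →
    orderOf (p : ZMod 5) ≠ 4 → ∃ τ : F, τ * τ + τ = 1 ∧ τ ^ p = τ

/-- [UX5] -/
def PkgUX5 : Prop :=
  ∀ (F : Type u) [Field F] [Fintype F] (p : ℕ), Fintype.card F = p ^ 2 → p.Prime → p % 4 = 3 →
    ∀ τ : F, τ * τ + τ = 1 → τ ^ p = τ →
    ∃ x : GL (Fin 4) F, x ∈ Cfsg.GU 4 F p ⊓ Cfsg.Geo.specialLinear (Fin 4) F ∧ x ^ 5 = 1 ∧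
      (x : M4 F).trace = τ + 2 ∧ ((x⁻¹ : GL (Fin 4) F) : M4 F).trace = τ + 2 ∧
      ∀ c : F, (x : M4 F) ≠ c • (1 : M4 F)

end Cfsg.Agent.Lib.Helper60.U64
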