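import Cfsg.Agent.Lib.Helper60.U64.Defs
import Cfsg.Agent.Lib.Helper40.UnitaryWall

/-!
# Project U64 (statement S6001): assembly
-/

set_option autoImplicit false

namespace Cfsg.Agent.Lib.Helper60.U64

open Matrix

universe u

section basics

variable {F : Type u} [Field F]

theorem coe_mul' (a b : GL (Fin 4) F) : ((a * b : GL (Fin 4) F) : M4 F) = (a : M4 F) * (b : M4 F) := rfl

theorem coe_pow' (a : GL (Fin 4) F) (n : ℕ) : ((a ^ n : GL (Fin 4) F) : M4 F) = (a : M4 F) ^ n := rfl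

theorem gl_ext {a b : GL (Fin 4) F} (h : (a : M4 F) = (b : M4 F)) : a = b := Units.ext h

/-- scalar GL elements are central -/
theorem scalar_comm {s : GL (Fin 4) F} {c : F} (hs : (s : M4 F) = c • (1 : M4 F)) (y : GL (Fin 4) F) :
    s * y = y * s := by
  apply gl_ext
  rw [coe_mul', coe_mul', hs, Matrix.smul_mul, Matrix.mul_smul, one_mul, mul_one]

theorem scalar_mem_normalizer {s : GL (Fin 4) F} {c : F} (hs : (s : M4 F) = c • (1 : M4 F))
    (S : Set (GL (Fin 4) F)) : s ∈ Subgroup.normalizer S := by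
  rw [Subgroup.mem_set_normalizer_iff]
  intro h
  rw [scalar_comm hs h, mul_inv_cancel_right]

/-- transport of the normalizer along a conjugation -/
theorem nrm_conj {R R₀ : Subgroup (GL (Fin 4) F)} {g : GL (Fin 4) F}
    (hR : R = R₀.map (MulAut.conj g).toMonoidHom) {y : GL (Fin 4) F}
    (hy : y ∈ Subgroup.normalizer ((R₀ : Subgroup (GL (Fin 4) F)) : Set (GL (Fin 4) F))) :
    g * y * g⁻¹ ∈ Cfsg.Geo.subgroupNormalizer R := by
  unfold Cfsg.Geo.subgroupNormalizer
  rw [Subgroup.mem_set_normalizer_iff] at hy ⊢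
  intro h
  have key : ∀ t : GL (Fin 4) F, t ∈ R ↔ g⁻¹ * t * g ∈ R₀ := by
    intro t
    rw [hR, Subgroup.mem_map]
    constructor
    · rintro ⟨w, hw, rfl⟩
      have : g⁻¹ * ((MulAut.conj g).toMonoidHom w) * g = w := by
        simp [MulAut.conj_apply, mul_assoc]
      rw [this]; exact hw
    · intro ht
      exact ⟨g⁻¹ * t * g, ht, by simp [MulAut.conj_apply, mul_assoc]⟩
  rw [SetLike.mem_coe, SetLike.mem_coe, key, key]
  have e : g⁻¹ * (g * y * g⁻¹ * h * (g * y * g⁻¹)⁻¹) * g = y * (g⁻¹ * h * g) * y⁻¹ := by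
    simp [mul_assoc]
  rw [e]
  exact hy (g⁻¹ * h * g)

end basics

section unitary

set_option linter.unusedSectionVars false

variable {F : Type u} [Field F] [Fintype F] {p : ℕ}

theorem mem_GU_iff (g : GL (Fin 4) F) :
    g ∈ Cfsg.GU 4 F p ↔ Cfsg.Agent.Lib.Helper45.IsHermIso 4 F p (g : M4 F) := Iff.rfl

theorem det_norm (hF : Fintype.card F = p ^ 2) {g : GL (Fin 4) F} (hg : g ∈ Cfsg.GU 4 F p) :
    (g : M4 F).det ^ (p + 1) = 1 :=
  Cfsg.Agent.Lib.Helper45.isHermIso_det hF ((mem_GU_iff g).mp hg)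

theorem mem_SL_iff (g : GL (Fin 4) F) :
    g ∈ Cfsg.Geo.specialLinear (Fin 4) F ↔ (g : M4 F).det = 1 := by
  unfold Cfsg.Geo.specialLinear
  rw [MonoidHom.mem_ker]
  constructor
  · intro h
    have := congrArg (fun t : Fˣ => (t : F)) h
    simpa using this
  · intro h
    apply Units.ext
    simpa using h

/-- `Good` elements of `SU` are `SU`-conjugate into the normalizer. -/
theorem adj (hF : Fintype.card F = p ^ 2) {i : F} {R : Subgroup (GL (Fin 4) F)} {g : GL (Fin 4) F}
    (hgU : g ∈ Cfsg.GU 4 F p) (hR : R = (R0 i).map (MulAut.conj g).toMonoidHom)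
    {x : GL (Fin 4) F} (hxU : x ∈ Cfsg.GU 4 F p) (hx : Good p i x) :
    ∃ h ∈ Cfsg.GU 4 F p ⊓ Cfsg.Geo.specialLinear (Fin 4) F,
      h⁻¹ * x * h ∈ Cfsg.Geo.subgroupNormalizer R := by
  obtain ⟨y₀, hy₀U, hy₀N, ⟨k, hk⟩, hcent⟩ := hx
  have hconj : IsConj ((⟨x, hxU⟩ : ↥(Cfsg.GU 4 F p)) : GL (Fin 4) F)
      ((⟨y₀, hy₀U⟩ : ↥(Cfsg.GU 4 F p)) : GL (Fin 4) F) := by
    rw [isConj_iff]
    refine ⟨k⁻¹, ?_⟩
    show k⁻¹ * x * k⁻¹⁻¹ = y₀
    rw [inv_inv, mul_assoc, hk, inv_mul_cancel_left]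
  have hW := Cfsg.Agent.Lib.Helper40.UnitaryWall.gu_conj_of_gl_conj hF ⟨x, hxU⟩ ⟨y₀, hy₀U⟩ hconj
  obtain ⟨c, hc⟩ := isConj_iff.mp hW
  have hc' : (c : GL (Fin 4) F) * x * (c : GL (Fin 4) F)⁻¹ = y₀ := by
    have := congrArg (fun t : ↥(Cfsg.GU 4 F p) => (t : GL (Fin 4) F)) hc
    simpa using this
  -- x = c⁻¹ y₀ c
  set k' : GL (Fin 4) F := (c : GL (Fin 4) F)⁻¹ with hk'
  have hk'U : k' ∈ Cfsg.GU 4 F p := (Cfsg.GU 4 F p).inv_mem c.2
  have hx_eq : x = k' * y₀ * k'⁻¹ := by
    rw [← hc', hk']; group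
  have hdk := det_norm hF hk'U
  have hdg := det_norm hF hgU
  have hdk0 : (k' : M4 F).det ≠ 0 := by
    intro h0; rw [h0, zero_pow (by omega)] at hdk; exact zero_ne_one hdk
  obtain ⟨M, hMU, hMc, hMd⟩ := hcent ((g : M4 F).det * ((k' : M4 F).det)⁻¹) (by
    rw [mul_pow, inv_pow, hdk, hdg, inv_one, mul_one])
  refine ⟨k' * M * g⁻¹, Subgroup.mem_inf.mpr ⟨?_, (mem_SL_iff _).mpr ?_⟩, ?_⟩
  · exact (Cfsg.GU 4 F p).mul_mem ((Cfsg.GU 4 F p).mul_mem hk'U hMU) ((Cfsg.GU 4 F p).inv_mem hgU)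
  · rw [coe_mul', coe_mul', Matrix.det_mul, Matrix.det_mul, hMd]
    have hginv : ((g⁻¹ : GL (Fin 4) F) : M4 F).det * (g : M4 F).det = 1 := by
      rw [← Matrix.det_mul, ← coe_mul', inv_mul_cancel]; simp
    have hg0 : (g : M4 F).det ≠ 0 := by
      intro h0; rw [h0, mul_zero] at hginv; exact zero_ne_one hginv
    have : ((g⁻¹ : GL (Fin 4) F) : M4 F).det = ((g : M4 F).det)⁻¹ := by
      field_simp; exact hginv
    rw [this]; field_simp
  · have e : (k' * M * g⁻¹)⁻¹ * x * (k' * M * g⁻¹) = g * y₀ * g⁻¹ := by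
      rw [hx_eq]
      have : M⁻¹ * y₀ * M = y₀ := by rw [mul_assoc, ← hMc, inv_mul_cancel_left]
      calc (k' * M * g⁻¹)⁻¹ * (k' * y₀ * k'⁻¹) * (k' * M * g⁻¹)
          = g * (M⁻¹ * y₀ * M) * g⁻¹ := by group
        _ = g * y₀ * g⁻¹ := by rw [this]
    rw [e]
    exact nrm_conj hR hy₀N

end unitary

section conj

variable {F : Type u} [Field F]

theorem conj_coe (h x : GL (Fin 4) F) :
    ((h⁻¹ * x * h : GL (Fin 4) F) : M4 F) = ((h⁻¹ : GL (Fin 4) F) : M4 F) * (x : M4 F) * (h : M4 F) := rfl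

theorem inv_mul_coe (h : GL (Fin 4) F) : ((h⁻¹ : GL (Fin 4) F) : M4 F) * (h : M4 F) = 1 := by
  rw [← coe_mul', inv_mul_cancel]; rfl

theorem mul_inv_coe (h : GL (Fin 4) F) : (h : M4 F) * ((h⁻¹ : GL (Fin 4) F) : M4 F) = 1 := by
  rw [← coe_mul', mul_inv_cancel]; rfl

theorem trace_conj (h x : GL (Fin 4) F) :
    ((h⁻¹ * x * h : GL (Fin 4) F) : M4 F).trace = (x : M4 F).trace := by
  rw [conj_coe, Matrix.trace_mul_comm, ← Matrix.mul_assoc, mul_inv_coe, one_mul]

theorem trace_conj_inv (h x : GL (Fin 4) F) :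
    (((h⁻¹ * x * h)⁻¹ : GL (Fin 4) F) : M4 F).trace = ((x⁻¹ : GL (Fin 4) F) : M4 F).trace := by
  have e : (h⁻¹ * x * h)⁻¹ = h⁻¹ * x⁻¹ * h := by group
  rw [e, trace_conj]

theorem scalar_of_conj {h x : GL (Fin 4) F} {c : F}
    (hy : ((h⁻¹ * x * h : GL (Fin 4) F) : M4 F) = c • (1 : M4 F)) : (x : M4 F) = c • (1 : M4 F) := by
  have e : x = h * (h⁻¹ * x * h) * h⁻¹ := by group
  rw [e, coe_mul', coe_mul', hy, Matrix.mul_smul, Matrix.smul_mul, mul_one, mul_inv_coe]

theorem pow_conj_one {h x : GL (Fin 4) F} {n : ℕ} (hx : x ^ n = 1) : (h⁻¹ * x * h) ^ n = 1 := by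
  have e : h⁻¹ * x * h = h⁻¹ * x * (h⁻¹)⁻¹ := by rw [inv_inv]
  rw [e, conj_pow, hx, mul_one, mul_inv_cancel]

theorem rank_conj (h x : GL (Fin 4) F) :
    (((h⁻¹ * x * h : GL (Fin 4) F) : M4 F) - 1).rank = ((x : M4 F) - 1).rank := by
  have e : ((h⁻¹ * x * h : GL (Fin 4) F) : M4 F) - 1
      = ((h⁻¹ : GL (Fin 4) F) : M4 F) * ((x : M4 F) - 1) * (h : M4 F) := by
    rw [conj_coe, Matrix.mul_sub, Matrix.sub_mul, mul_one, inv_mul_coe]
  rw [e]
  have hu1 : IsUnit ((h : M4 F)).det := by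
    have := (h : (M4 F)ˣ).isUnit
    exact (Matrix.isUnit_iff_isUnit_det _).mp this
  have hu2 : IsUnit (((h⁻¹ : GL (Fin 4) F) : M4 F)).det := by
    have := ((h⁻¹ : GL (Fin 4) F) : (M4 F)ˣ).isUnit
    exact (Matrix.isUnit_iff_isUnit_det _).mp this
  rw [Matrix.rank_mul_eq_left_of_isUnit_det _ _ hu1, Matrix.rank_mul_eq_right_of_isUnit_det _ _ hu2]

theorem div64 {n : ℕ} (h1 : n ∣ 64) (h2 : 4 ∣ n) : n = 4 ∨ n = 8 ∨ n = 16 ∨ n = 32 ∨ n = 64 := by
  have hle : n ≤ 64 := Nat.le_of_dvd (by norm_num) h1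
  interval_cases n <;> omega

theorem arith3 {p m : ℕ} (hp4 : p % 4 = 3) (hp32 : p % 3 = 2) (hm : m = 24 ∨ m = 12 ∨ m = 36)
    (hd : p ∣ m) : False := by
  rcases hm with rfl | rfl | rfl
  · have hle := Nat.le_of_dvd (by norm_num) hd
    interval_cases p <;> omega
  · have hle := Nat.le_of_dvd (by norm_num) hd
    interval_cases p <;> omega
  · have hle := Nat.le_of_dvd (by norm_num) hd
    interval_cases p <;> omega

theorem arith5 {p : ℕ} (hp4 : p % 4 = 3) (hd : p ∣ 20) : False := by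
  have hle := Nat.le_of_dvd (by norm_num) hd
  interval_cases p <;> omega

theorem arith_r {r m : ℕ} (hr : r.Prime) (hr11 : 11 ≤ r)
    (hm : m = 60 ∨ m = 56 ∨ m = 48 ∨ m = 32) (hd : r ∣ m) : False := by
  rcases hm with rfl | rfl | rfl | rfl
  · have hle := Nat.le_of_dvd (by norm_num) hd
    interval_cases r <;> first | omega | exact absurd hr (by norm_num)
  · have hle := Nat.le_of_dvd (by norm_num) hd
    interval_cases r <;> first | omega | exact absurd hr (by norm_num)
  · have hle := Nat.le_of_dvd (by norm_num) hd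
    interval_cases r <;> first | omega | exact absurd hr (by norm_num)
  · have hle := Nat.le_of_dvd (by norm_num) hd
    interval_cases r <;> first | omega | exact absurd hr (by norm_num)

end conj

end Cfsg.Agent.Lib.Helper60.U64

namespace Cfsg.Agent.Lib.Helper60.U64

open Matrix

universe u

set_option maxHeartbeats 1000000 in
/-- The assembly of S6001 from the packages. -/
theorem s6001_of (hPM : PkgPM.{u}) (hFrA : PkgFrA.{u}) (hFrB : PkgFrB.{u}) (hFrC : PkgFrC.{u})
    (hNY5 : PkgNY5.{u}) (hExpl : PkgExpl.{u}) (hGUM : PkgGUM.{u}) (hDGU : PkgDGU.{u})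
    (hP2 : PkgP2.{u}) (hP3 : PkgP3.{u}) (hP5 : PkgP5.{u}) (hTR : PkgTR.{u}) (hFix7 : PkgFix7.{u})
    (hDTV : PkgDTV.{u}) (hUTV : PkgUTV.{u}) (hW3 : PkgW3.{u}) (hQR5 : PkgQR5.{u}) (hUX5 : PkgUX5.{u})
    {F : Type u} [Field F] [Fintype F] {p : ℕ} [Fact p.Prime] [CharP F p]
    (hF : Fintype.card F = p ^ 2) (hp4 : p % 4 = 3)
    (R : Subgroup (GL (Fin 4) F)) (hRs : Cfsg.Geo.IsSymplecticTypeGroup 2 R)
    (hRi : Cfsg.Geo.ActsAbsolutelyIrreducibly (Cfsg.Geo.matrixSet R))
    (hRU : R ≤ Cfsg.GU 4 F p) (hR6 : Nat.card R = 2 ^ 6) (hRZ : Nat.card (Subgroup.center R) = 4)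
    (r : ℕ) [Fact r.Prime]
    (hΩ : r ∣ (Cfsg.Geo.subgroupNormalizer R).relIndex
      (Cfsg.GU 4 F p ⊓ Cfsg.Geo.specialLinear (Fin 4) F)) :
    (∀ x ∈ Cfsg.GU 4 F p ⊓ Cfsg.Geo.specialLinear (Fin 4) F,
      (∃ z : F, ((x ^ r : GL (Fin 4) F) : Matrix (Fin 4) (Fin 4) F) =
        z • (1 : Matrix (Fin 4) (Fin 4) F)) →
      (∀ z : F, (x : Matrix (Fin 4) (Fin 4) F) ≠ z • (1 : Matrix (Fin 4) (Fin 4) F)) →
      ∃ g ∈ Cfsg.GU 4 F p ⊓ Cfsg.Geo.specialLinear (Fin 4) F,
        g⁻¹ * x * g ∈ Cfsg.Geo.subgroupNormalizer R) ↔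
    (r = 2 ∨ (r = 3 ∧ p % 3 = 1) ∨ (r = 5 ∧ orderOf (p : ZMod 5) = 4)) := by
  classical
  have hp : p.Prime := Fact.out
  have hr : r.Prime := Fact.out
  have hp2 : p ≠ 2 := by intro h; rw [h] at hp4; omega
  have hcast : ∀ m : ℕ, ((m : ℕ) : F) = 0 → p ∣ m := fun m hm => (CharP.cast_eq_zero_iff F p m).mp hm
  have h2 : (2 : F) ≠ 0 := by
    intro h
    have hd : p ∣ 2 := hcast 2 (by exact_mod_cast h)
    have := Nat.le_of_dvd (by norm_num) hd
    have := hp.two_le
    omega
  have hSC : ScalComm R := by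
    intro M hM
    exact hRi.2 M (by
      rintro s ⟨t, ht, rfl⟩
      exact hM t ht)
  have hR64 : Nat.card R = 64 := by rw [hR6]; norm_num
  have hPMR : IsPM R := hPM F R hRs hSC hR64 hRZ h2
  obtain ⟨i, a1, b1, a2, b2, hi, ha1, hb1, ha2, hb2, hPauli, hiR, hgen⟩ :=
    hFrA F R hPMR hSC hR64 hRZ h2
  obtain ⟨g, hgU, hg1, hg2, hg3, hg4⟩ :=
    hFrB F p hF hp hp2 a1 b1 a2 b2 (hRU ha1) (hRU hb1) (hRU ha2) (hRU hb2) hPauli
  have hR0 : R = (R0 i).map (MulAut.conj g).toMonoidHom :=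
    hFrC F R i a1 b1 a2 b2 g hi h2 ha1 hb1 ha2 hb2 hiR hgen hg1 hg2 hg3 hg4
  -- `i ^ p = -i`
  have hip : i ^ p = -i := by
    have h4 : i ^ 4 = 1 := by
      have : i ^ 4 = (i * i) * (i * i) := by ring
      rw [this, hi]; ring
    have e : p = 4 * (p / 4) + 3 := by omega
    rw [e, pow_add, pow_mul, h4, one_pow, one_mul]
    have : i ^ 3 = (i * i) * i := by ring
    rw [this, hi]; ring
  constructor
  · intro H
    by_contra hcon
    push Not at hcon
    obtain ⟨hr2, hc3, hc5⟩ := hcon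
    have hTR' := hTR F R hPMR hSC hR64 hRZ h2
    have hp3' : 3 ≤ p := by have := hp.two_le; omega
    by_cases h3 : r = 3
    · subst h3
      have hp3 : p % 3 ≠ 1 := hc3 rfl
      by_cases hp33 : p = 3
      · -- a unitary transvection
        obtain ⟨x, hxmem, hxp, hxrank⟩ := hUTV F p hF hp hp2
        have hx3 : x ^ 3 = 1 := hp33 ▸ hxp
        have hns : ∀ z : F, (x : M4 F) ≠ z • (1 : M4 F) := by
          intro z hz
          rw [hz] at hxrank
          by_cases hz1 : z = 1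
          · rw [hz1, one_smul, sub_self, Matrix.rank_zero] at hxrank; omega
          · have e : z • (1 : M4 F) - 1 = (z - 1) • (1 : M4 F) := by rw [sub_smul, one_smul]
            rw [e] at hxrank
            have hu : IsUnit ((z - 1) • (1 : M4 F)) := by
              refine (Matrix.isUnit_iff_isUnit_det _).mpr ?_
              rw [Matrix.det_smul, Matrix.det_one, mul_one]
              exact (isUnit_iff_ne_zero.mpr (sub_ne_zero.mpr hz1)).pow _
            rw [Matrix.rank_of_isUnit _ hu] at hxrank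
            simp at hxrank
        obtain ⟨h, hh, hyN⟩ := H x hxmem ⟨1, by rw [hx3, one_smul]; rfl⟩ hns
        exact hDTV F R hPMR hSC hR64 hRZ h2 (h⁻¹ * x * h) 3 hyN (by decide) (pow_conj_one hx3)
          (by rw [rank_conj]; exact hxrank)
      · have hp32 : p % 3 = 2 := by
          have h0 : p % 3 ≠ 0 := fun h0 =>
            hp33 ((Nat.prime_dvd_prime_iff_eq Nat.prime_three hp).mp (Nat.dvd_of_mod_eq_zero h0)).symm
          omega
        obtain ⟨ω, hω, hωN⟩ := hW3 F p hF hp hp32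
        have hω3 : ω ^ 3 = 1 := by linear_combination (ω - 1) * hω
        have hm1 : Matrix.diagonal ![ω, ω, ω, 1] * Matrix.diagonal ![ω ^ 2, ω ^ 2, ω ^ 2, 1]
            = (1 : M4 F) := by
          rw [Matrix.diagonal_mul_diagonal, ← Matrix.diagonal_one]
          congr 1
          funext j
          fin_cases j <;> simp <;> linear_combination hω3
        have hm2 : Matrix.diagonal ![ω ^ 2, ω ^ 2, ω ^ 2, 1] * Matrix.diagonal ![ω, ω, ω, 1]
            = (1 : M4 F) := by
          rw [Matrix.diagonal_mul_diagonal, ← Matrix.diagonal_one]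
          congr 1
          funext j
          fin_cases j <;> simp <;> linear_combination hω3
        let x : GL (Fin 4) F := ⟨Matrix.diagonal ![ω, ω, ω, 1],
          Matrix.diagonal ![ω ^ 2, ω ^ 2, ω ^ 2, 1], hm1, hm2⟩
        have hxc : (x : M4 F) = Matrix.diagonal ![ω, ω, ω, 1] := rfl
        have hxi : ((x⁻¹ : GL (Fin 4) F) : M4 F) = Matrix.diagonal ![ω ^ 2, ω ^ 2, ω ^ 2, 1] := rfl
        have hxU : x ∈ Cfsg.GU 4 F p := hDGU F p hF hp ![ω, ω, ω, 1] (by
          intro j; fin_cases j <;> simp [hωN]) x hxc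
        have hxd : (x : M4 F).det = 1 := by
          rw [hxc, Matrix.det_diagonal, Fin.prod_univ_four]
          simp
          linear_combination hω3
        have hx3 : x ^ 3 = 1 := by
          apply gl_ext
          rw [coe_pow', hxc, Matrix.diagonal_pow]
          show Matrix.diagonal (![ω, ω, ω, 1] ^ 3) = (1 : M4 F)
          rw [← Matrix.diagonal_one]
          congr 1
          funext j
          fin_cases j <;> simp [hω3]
        have h3F : (3 : F) ≠ 0 := by
          intro h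
          have hd : p ∣ 3 := hcast 3 (by exact_mod_cast h)
          exact hp33 ((Nat.prime_dvd_prime_iff_eq hp Nat.prime_three).mp hd)
        have hns : ∀ z : F, (x : M4 F) ≠ z • (1 : M4 F) := by
          intro z hz
          rw [hxc] at hz
          have e0 := congrFun (congrFun hz 0) 0
          have e3 := congrFun (congrFun hz 3) 3
          simp at e0 e3
          apply h3F
          have hω1 : ω = 1 := by rw [e0, ← e3]
          rw [hω1] at hω
          linear_combination hω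
        obtain ⟨h, hh, hyN⟩ := H x (Subgroup.mem_inf.mpr ⟨hxU, (mem_SL_iff x).mpr hxd⟩)
          ⟨1, by rw [hx3, one_smul]; rfl⟩ hns
        obtain ⟨n, hn64, hn4, hrn, -, htr⟩ := hTR' (h⁻¹ * x * h) 3 hyN Nat.prime_three (by norm_num)
          ⟨1, by rw [pow_conj_one hx3, one_smul]; rfl⟩
        rw [trace_conj, trace_conj_inv, hxc, hxi] at htr
        simp [Matrix.trace, Fin.sum_univ_four] at htr
        have h28 : (28 : F) = (n : F) := by
          rw [← htr]
          linear_combination (-4 : F) * (9 * ω - 6) * hω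
        rcases div64 hn64 hn4 with rfl | rfl | rfl | rfl | rfl
        · exact arith3 hp4 hp32 (Or.inl rfl) (hcast 24 (by push_cast; linear_combination h28))
        · omega
        · exact arith3 hp4 hp32 (Or.inr (Or.inl rfl)) (hcast 12 (by push_cast; linear_combination h28))
        · omega
        · exact arith3 hp4 hp32 (Or.inr (Or.inr rfl)) (hcast 36 (by push_cast; linear_combination -h28))
    · by_cases h5 : r = 5
      · subst h5
        have hord : orderOf (p : ZMod 5) ≠ 4 := hc5 rfl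
        obtain ⟨τ, hτ, hτp⟩ := hQR5 F p hF hp hp4 hord
        obtain ⟨x, hxmem, hx5, htr1, htr2, hxns⟩ := hUX5 F p hF hp hp4 τ hτ hτp
        obtain ⟨h, hh, hyN⟩ := H x hxmem ⟨1, by rw [hx5, one_smul]; rfl⟩ hxns
        obtain ⟨n, hn64, hn4, hrn, hsc, htr⟩ := hTR' (h⁻¹ * x * h) 5 hyN (by norm_num) (by norm_num)
          ⟨1, by rw [pow_conj_one hx5, one_smul]; rfl⟩
        rw [trace_conj, trace_conj_inv, htr1, htr2] at htr
        rcases div64 hn64 hn4 with rfl | rfl | rfl | rfl | rfl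
        · have h20 : ((20 : ℕ) : F) = 0 := by
            push_cast
            push_cast at htr
            linear_combination (3 * τ - 1) * htr - (12 * τ + 32) * hτ
          exact arith5 hp4 (hcast 20 h20)
        · omega
        · omega
        · omega
        · obtain ⟨c, hc⟩ := hsc rfl
          exact hxns c (scalar_of_conj hc)
      · -- r ≥ 7
        have hr7 : 7 ≤ r := by
          have := hr.two_le
          by_contra hlt
          have h4 : r ≠ 4 := by intro h; rw [h] at hr; exact absurd hr (by norm_num)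
          have h6 : r ≠ 6 := by intro h; rw [h] at hr; exact absurd hr (by norm_num)
          omega
        have hdvd : r ∣ Nat.card ↥(Cfsg.GU 4 F p ⊓ Cfsg.Geo.specialLinear (Fin 4) F) :=
          dvd_trans hΩ (Subgroup.relIndex_dvd_card _ _)
        obtain ⟨x, hx⟩ := exists_prime_orderOf_dvd_card'
          (G := ↥(Cfsg.GU 4 F p ⊓ Cfsg.Geo.specialLinear (Fin 4) F)) r hdvd
        have hxr : (x : GL (Fin 4) F) ^ r = 1 := by
          have h := pow_orderOf_eq_one x
          rw [hx] at h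
          have h' := congrArg Subtype.val h
          rw [Subgroup.coe_pow] at h'
          exact h'
        have hx1 : (x : GL (Fin 4) F) ≠ 1 := by
          intro h
          have : x = 1 := Subtype.ext h
          rw [this, orderOf_one] at hx
          omega
        have hxd := (mem_SL_iff x.1).mp (Subgroup.mem_inf.mp x.2).2
        have hns : ∀ z : F, ((x : GL (Fin 4) F) : M4 F) ≠ z • (1 : M4 F) := by
          intro z hz
          apply hx1
          have hz4 : z ^ 4 = 1 := by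
            rw [hz, Matrix.det_smul, Matrix.det_one, mul_one] at hxd
            simpa using hxd
          have hzr : z ^ r = 1 := by
            have e := congrArg (fun t : GL (Fin 4) F => (t : M4 F) 0 0) hxr
            simp only [coe_pow', hz] at e
            rw [smul_pow, one_pow] at e
            simpa using e
          have hz1 : z = 1 := by
            have hg : Nat.gcd 4 r = 1 := by
              have : Nat.Coprime r 4 := by
                have : Nat.Coprime r 2 := (Nat.coprime_primes hr Nat.prime_two).mpr (by omega)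
                exact Nat.Coprime.pow_right 2 this
              exact Nat.Coprime.symm this
            have hzz : z ^ Nat.gcd 4 r = 1 := pow_gcd_eq_one.mpr ⟨hz4, hzr⟩
            rw [hg, pow_one] at hzz
            exact hzz
          apply gl_ext
          rw [hz, hz1, one_smul]; rfl
        obtain ⟨h, hh, hyN⟩ := H x.1 x.2 ⟨1, by rw [hxr, one_smul]; rfl⟩ hns
        by_cases h7 : r = 7
        · subst h7
          obtain ⟨c, hc⟩ := hFix7 F R hPMR hSC hR64 hRZ h2 (h⁻¹ * x.1 * h) hyN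
            ⟨1, by rw [pow_conj_one hxr, one_smul]; rfl⟩
          exact hns c (scalar_of_conj hc)
        · obtain ⟨n, hn64, hn4, hrn, hsc, -⟩ := hTR' (h⁻¹ * x.1 * h) r hyN hr hr2
            ⟨1, by rw [pow_conj_one hxr, one_smul]; rfl⟩
          have hr11 : 11 ≤ r := by
            have h8 : r ≠ 8 := by intro h; rw [h] at hr; exact absurd hr (by norm_num)
            have h9 : r ≠ 9 := by intro h; rw [h] at hr; exact absurd hr (by norm_num)
            have h10 : r ≠ 10 := by intro h; rw [h] at hr; exact absurd hr (by norm_num)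
            omega
          rcases div64 hn64 hn4 with rfl | rfl | rfl | rfl | rfl
          · exact arith_r hr hr11 (Or.inl rfl) hrn
          · exact arith_r hr hr11 (Or.inr (Or.inl rfl)) hrn
          · exact arith_r hr hr11 (Or.inr (Or.inr (Or.inl rfl))) hrn
          · exact arith_r hr hr11 (Or.inr (Or.inr (Or.inr rfl))) hrn
          · obtain ⟨c, hc⟩ := hsc rfl
            exact hns c (scalar_of_conj hc)
  · rintro (rfl | ⟨rfl, hp3⟩ | ⟨rfl, hord⟩)
    · -- r = 2
      intro x hx ⟨z, hz⟩ hns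
      have hxU := (Subgroup.mem_inf.mp hx).1
      have hxd := (mem_SL_iff x).mp (Subgroup.mem_inf.mp hx).2
      have hG : Good p i x := hP2 F p i hF hp hp4 hi x hxU hxd
        ⟨z, by rw [← hz, coe_pow', pow_two]⟩ hns
      exact adj hF hgU hR0 hxU hG
    · -- r = 3
      intro x hx ⟨z, hz⟩ hns
      have hxU := (Subgroup.mem_inf.mp hx).1
      have hxd := (mem_SL_iff x).mp (Subgroup.mem_inf.mp hx).2
      have hG : Good p i x := hP3 F p i hF hp hp4 hp3 hi x hxU hxd
        ⟨z, by rw [← hz, coe_pow']⟩ hns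
      exact adj hF hgU hR0 hxU hG
    · -- r = 5
      obtain ⟨hU0, hU2, hY5, hYdet, hYne, -, -⟩ := hExpl F i hi h2
      let y5 : GL (Fin 4) F := Matrix.GeneralLinearGroup.mkOfDetNeZero (mY5 i) (by
        rw [hYdet]; exact one_ne_zero)
      have hy5c : (y5 : M4 F) = mY5 i := rfl
      have hy5U : y5 ∈ Cfsg.GU 4 F p :=
        hGUM F p i hF hp hp4 hi hip y5 (Or.inr (Or.inr (Or.inr (Or.inl hy5c))))
      have hy5N := hNY5 F i hi h2 y5 hy5c
      have hy55 : y5 ^ 5 = 1 := by
        apply gl_ext; rw [coe_pow', hy5c, hY5]; rfl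
      have hy51 : y5 ≠ 1 := by
        intro h; apply hYne; rw [← hy5c, h]; rfl
      have hYmem : g * y5 * g⁻¹ ∈ Cfsg.GU 4 F p ⊓ Cfsg.Geo.specialLinear (Fin 4) F := by
        refine Subgroup.mem_inf.mpr ⟨?_, (mem_SL_iff _).mpr ?_⟩
        · exact (Cfsg.GU 4 F p).mul_mem ((Cfsg.GU 4 F p).mul_mem hgU hy5U)
            ((Cfsg.GU 4 F p).inv_mem hgU)
        · rw [coe_mul', coe_mul', Matrix.det_mul, Matrix.det_mul, hy5c, hYdet, mul_one,
            ← Matrix.det_mul, mul_inv_coe, Matrix.det_one]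
      have hYN : g * y5 * g⁻¹ ∈ Cfsg.Geo.subgroupNormalizer R := nrm_conj hR0 hy5N
      have hY5' : (g * y5 * g⁻¹) ^ 5 = 1 := by
        rw [conj_pow, hy55, mul_one, mul_inv_cancel]
      have hY1 : g * y5 * g⁻¹ ≠ 1 := by
        intro h
        apply hy51
        have e : y5 = g⁻¹ * (g * y5 * g⁻¹) * g := by group
        rw [e, h]; group
      intro x hx hz hns
      exact hP5 F p hF hp hp4 hord (Cfsg.Geo.subgroupNormalizer R) (g * y5 * g⁻¹)
        (fun c s hs => scalar_mem_normalizer hs _) hYmem hYN hY5' hY1 x hx hz hns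

end Cfsg.Agent.Lib.Helper60.U64
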